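import Mathlib

/-!
# The number theory behind the Feit–Higman theorem
-/

set_option autoImplicit false

namespace Cfsg.Agent.FeitHigman

open Polynomial Real

theorem eval_T_eq_one {n : ℕ} (hn : 0 < n) {y : ℝ} (hy : cos (2 * π / n) < y)
    (h : (Polynomial.Chebyshev.T ℝ n).eval y = 1) : y = 1 := by
  rcases lt_or_ge 1 y with h1 | h1
  · exfalso
    have hy' : cosh (arcosh y) = y := cosh_arcosh h1.le
    rw [← hy', Polynomial.Chebyshev.T_real_cosh] at h
    have ha : arcosh y ≠ 0 := by
      intro ha; rw [ha, cosh_zero] at hy'; linarith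
    have h2 := one_lt_cosh.2 (mul_ne_zero
      (show (((n : ℤ) : ℝ)) ≠ 0 by exact_mod_cast hn.ne') ha)
    linarith
  · have hy0 : -1 ≤ y := le_trans (neg_one_le_cos _) hy.le
    have hy' : cos (arccos y) = y := cos_arccos hy0 h1
    rw [← hy', Polynomial.Chebyshev.T_real_cos, cos_eq_one_iff] at h
    obtain ⟨k, hk⟩ := h
    have hn' : (0 : ℝ) < n := by exact_mod_cast hn
    have h2 : (n : ℤ) * 1 = n := mul_one _
    have hk' : (k : ℝ) * (2 * π) = (n : ℝ) * arccos y := by push_cast at hk; exact hk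
    have hlt : arccos y < 2 * π / n := by
      by_contra hge
      push Not at hge
      rcases le_or_gt (2 * π / n) π with hp | hp
      · have := cos_le_cos_of_nonneg_of_le_pi (by positivity) (arccos_le_pi y) hge
        rw [hy'] at this
        linarith
      · linarith [arccos_le_pi y]
    have h3 : (n : ℝ) * arccos y < 2 * π := by
      rw [lt_div_iff₀ hn'] at hlt; linarith
    have hk0 : k = 0 := by
      have h4 : (k : ℝ) < 1 := by nlinarith [pi_pos]
      have h5 : (0 : ℝ) ≤ k := by nlinarith [pi_pos, arccos_nonneg y]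
      have h6 : k < 1 := by exact_mod_cast h4
      have h7 : 0 ≤ k := by exact_mod_cast h5
      omega
    rw [hk0, Int.cast_zero, zero_mul] at hk'
    have : arccos y = 0 := by
      rcases mul_eq_zero.1 hk'.symm with h | h
      · linarith
      · exact h
    rw [← hy', this, cos_zero]

theorem odd_case {C R e : ℝ} (hR : ∃ x : ℚ, (x : ℝ) = R) (he : ∃ x : ℚ, (x : ℝ) = e)
    (he0 : e ≠ 0) (hC : C ≠ -1) (h : 2 * e + 2 * e * C = R * (1 - C ^ 2)) :
    ∃ x : ℚ, (x : ℝ) = C := by
  obtain ⟨r, rfl⟩ := hR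
  obtain ⟨e', rfl⟩ := he
  have h1 : (C + 1) * ((r : ℝ) * (C - 1) + 2 * (e' : ℝ)) = 0 := by linear_combination h
  have h2 : (r : ℝ) * (C - 1) + 2 * (e' : ℝ) = 0 :=
    (mul_eq_zero.1 h1).resolve_left fun h3 => hC (by linarith)
  have hr : (r : ℝ) ≠ 0 := by
    intro h3; rw [h3] at h2; exact he0 (by linarith)
  refine ⟨1 - 2 * e' / r, ?_⟩
  push_cast
  field_simp
  linarith

/-- The number `√(pr) cos(π/n)` is rational if it satisfies the rational quadratic. -/
theorem even_case {n : ℕ} (hn : 3 ≤ n) {A B F Q : ℚ} (hA : 0 < A) (hB : 0 < B) (hQ : 0 < Q)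
    {D : ℝ} (hD : D = √(Q : ℝ) * cos (π / n))
    (h : (A : ℝ) * D ^ 2 + (B : ℝ) * D + (F : ℝ) = 0) : ∃ x : ℚ, (x : ℝ) = D := by
  by_contra hirr
  simp only [not_exists] at hirr
  have hn' : (0 : ℝ) < n := by exact_mod_cast (by omega : 0 < n)
  have hπn : π / n < π / 2 := div_lt_div_of_pos_left pi_pos two_pos (by exact_mod_cast (by omega : 2 < n))
  have hC : 0 < cos (π / n) :=
    cos_pos_of_mem_Ioo ⟨by linarith [pi_pos, div_pos pi_pos hn'], hπn⟩
  have hQ' : (0 : ℝ) < Q := by exact_mod_cast hQ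
  have hA' : (0 : ℝ) < A := by exact_mod_cast hA
  have hB' : (0 : ℝ) < B := by exact_mod_cast hB
  have hD0 : 0 < D := hD ▸ mul_pos (sqrt_pos.2 hQ') hC
  set D' : ℝ := -(B : ℝ) / A - D with hD'
  -- `D` and `D'` are the roots of an irreducible rational quadratic
  set g : ℚ[X] := X ^ 2 + C (B / A) * X + C (F / A) with hg
  have hgD : aeval D g = 0 := by
    simp [hg, aeval_def]
    field_simp
    linarith
  have hgen' : (A : ℝ) * D' ^ 2 + B * D' + F = 0 := by
    have h1 : (A : ℝ) * D' = -B - A * D := by rw [hD']; field_simp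
    have h2 : (A : ℝ) * ((A : ℝ) * D' ^ 2 + B * D' + F) = 0 := by
      linear_combination ((A : ℝ) * D' + (-(B : ℝ) - A * D) + B) * h1 + (A : ℝ) * h
    exact (mul_eq_zero.1 h2).resolve_left hA'.ne'
  have hgD' : aeval D' g = 0 := by
    simp [hg, aeval_def]
    field_simp
    linarith [hgen']
  have hmon : g.Monic := by rw [hg]; monicity!
  have hdeg : g.natDegree = 2 := by rw [hg]; compute_degree!
  have hroot : ∀ x : ℚ, ¬ g.IsRoot x := by
    intro x hx
    have hx' : aeval (x : ℝ) g = 0 := by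
      rw [show (x : ℝ) = algebraMap ℚ ℝ x from (eq_ratCast _ x).symm, aeval_algebraMap_apply,
        coe_aeval_eq_eval, hx.eq_zero, map_zero]
    simp [hg, aeval_def] at hx'
    field_simp at hx'
    have h1 : ((x : ℝ) - D) * ((A : ℝ) * x + A * D + B) = 0 := by
      linear_combination hx' - h
    rcases mul_eq_zero.1 h1 with h2 | h2
    · exact hirr x (by linarith)
    · refine hirr (-B / A - x) ?_
      push_cast
      field_simp
      linarith
  have hirrg : Irreducible g := by
    refine (hmon.irreducible_iff_roots_eq_zero_of_degree_le_three (by omega) (by omega)).2 ?_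
    exact Multiset.eq_zero_of_forall_notMem fun x hx => hroot x (Polynomial.mem_roots'.1 hx).2
  have hmin : minpoly ℚ D = g := (minpoly.eq_of_irreducible_of_monic hirrg hgD hmon).symm
  -- the Chebyshev polynomial vanishing at `D`
  set Pn : ℚ[X] := (Chebyshev.T ℚ n).comp (C (2 / Q) * X ^ 2 - 1) - 1 with hPn
  have heval : ∀ z : ℝ, aeval z Pn = (Chebyshev.T ℝ n).eval (2 / (Q : ℝ) * z ^ 2 - 1) - 1 := by
    intro z
    rw [hPn, map_sub, aeval_comp, map_one]
    congr 1
    rw [← Chebyshev.aeval_T (R := ℚ) (R' := ℝ)]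
    simp
  have hy : 2 / (Q : ℝ) * D ^ 2 - 1 = cos (2 * π / n) := by
    rw [hD, mul_pow, sq_sqrt hQ'.le, show 2 * π / n = 2 * (π / n) by ring, cos_two_mul]
    field_simp
  have hPD : aeval D Pn = 0 := by
    rw [heval, hy, Chebyshev.T_real_cos]
    have : ((n : ℤ) : ℝ) * (2 * π / n) = 2 * π := by push_cast; field_simp
    rw [this, cos_two_pi, sub_self]
  obtain ⟨c, hc⟩ := hmin ▸ minpoly.dvd ℚ D hPD
  have hPD' : aeval D' Pn = 0 := by rw [hc, map_mul, hgD', zero_mul]
  rw [heval, sub_eq_zero] at hPD'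
  have hsq : D ^ 2 < D' ^ 2 := by
    have : 0 < (B : ℝ) / A := div_pos hB' hA'
    rw [hD', neg_div]
    nlinarith
  have h1 := eval_T_eq_one (y := 2 / (Q : ℝ) * D' ^ 2 - 1) (by omega) (by
    rw [← hy]
    have : 0 < 2 / (Q : ℝ) := by positivity
    nlinarith) hPD'
  have h2 : D' ^ 2 = Q := by
    field_simp at h1
    linarith
  -- hence `D'` is rational
  refine hirr (-B / A - (-(A * Q + F) / B)) ?_
  have h3 : D' = (-((A : ℝ) * Q + F) / B) := by
    have hg' : (A : ℝ) * D' ^ 2 + B * D' + F = 0 := hgen'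
    rw [h2] at hg'
    field_simp
    linarith
  push_cast
  rw [← h3, hD']
  ring

/-- The values of `m` allowed by rationality of the multiplicities. -/
theorem feit_higman_arith (m : ℕ) (p r : ℕ) (hm : 2 ≤ m) (hp : 2 ≤ p) (hr : 2 ≤ r)
    (hodd : Odd m → p = r)
    (hrat : ∀ j : ℕ, 0 < j → 2 * j < m → ∃ R : ℚ,
      ((p : ℝ) - 1) ^ 2 / p + ((r : ℝ) - 1) ^ 2 / r +
          2 * (((p : ℝ) - 1) * ((r : ℝ) - 1) / √((p : ℝ) * r)) * cos (2 * π * j / m) =
        (R : ℝ) * (1 - cos (2 * π * j / m) ^ 2)) :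
    m ∈ ({2, 3, 4, 6, 8} : Set ℕ) := by
  have hp' : (2 : ℝ) ≤ p := by exact_mod_cast hp
  have hr' : (2 : ℝ) ≤ r := by exact_mod_cast hr
  have hpr : (0 : ℝ) < (p : ℝ) * r := by positivity
  have hsq : √((p : ℝ) * r) ^ 2 = p * r := sq_sqrt hpr.le
  have hsq0 : 0 < √((p : ℝ) * r) := sqrt_pos.2 hpr
  set e : ℝ := ((p : ℝ) - 1) * ((r : ℝ) - 1) / √((p : ℝ) * r) with he
  have he0 : 0 < e := div_pos (mul_pos (by linarith) (by linarith)) hsq0
  by_cases hm4 : m ≤ 4
  · simp only [Set.mem_insert_iff, Set.mem_singleton_iff]; omega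
  have hm5 : 5 ≤ m := by omega
  have hm' : (0 : ℝ) < m := by positivity
  have hangle : ∀ j : ℕ, 2 * j < m → 2 * π * j / m < π := fun j hj => by
    rw [div_lt_iff₀ hm']
    have : (2 : ℝ) * j < m := by exact_mod_cast hj
    nlinarith [pi_pos]
  obtain ⟨R, hR⟩ := hrat 1 one_pos (by omega)
  rw [Nat.cast_one, mul_one] at hR
  set c := cos (2 * π / m) with hc
  have hc1 : c ≠ -1 := by
    intro h
    have h1 := cos_lt_cos_of_nonneg_of_le_pi (x := 2 * π / m) (y := π) (by positivity) le_rfl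
      (by simpa using hangle 1 (by omega))
    rw [cos_pi, ← hc, h] at h1
    exact lt_irrefl _ h1
  have hcos4 : cos (4 * π / m) = 2 * c ^ 2 - 1 := by
    rw [hc, show 4 * π / m = 2 * (2 * π / m) by ring, cos_two_mul]
  have hrc2 : ∃ x : ℚ, (x : ℝ) = c ^ 2 := by
    rcases Nat.even_or_odd m with hev | hod
    · obtain ⟨n, hn⟩ := hev
      have hn3 : 3 ≤ n := by omega
      have hR0 : 0 < R := by
        have hc0 : 0 ≤ c := by
          refine cos_nonneg_of_mem_Icc ⟨by linarith [pi_pos, div_pos (mul_pos two_pos pi_pos) hm'], ?_⟩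
          rw [div_le_iff₀ hm']
          have : (5 : ℝ) ≤ m := by exact_mod_cast hm5
          nlinarith [pi_pos]
        have hlhs : (0 : ℝ) < ((p : ℝ) - 1) ^ 2 / p + ((r : ℝ) - 1) ^ 2 / r + 2 * e * c := by
          have : 0 < ((p : ℝ) - 1) ^ 2 / p := div_pos (by nlinarith) (by linarith)
          positivity
        rw [hR] at hlhs
        have : (0 : ℝ) < R := by nlinarith [cos_sq_le_one (2 * π / (m : ℝ))]
        exact_mod_cast this
      obtain ⟨x, hx⟩ := even_case hn3 (A := R / ((p : ℚ) * r))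
        (B := 2 * ((p - 1 : ℚ) * (r - 1)) / ((p : ℚ) * r))
        (F := (p - 1 : ℚ) ^ 2 / p + (r - 1 : ℚ) ^ 2 / r - R) (Q := (p : ℚ) * r)
        (D := √((p : ℝ) * r) * c)
        (div_pos hR0 (by positivity))
        (div_pos (mul_pos two_pos (mul_pos
          (by linarith [show (2 : ℚ) ≤ p by exact_mod_cast hp])
          (by linarith [show (2 : ℚ) ≤ r by exact_mod_cast hr]))) (by positivity))
        (by positivity)
        (by rw [hc, hn]; push_cast; congr 2; field_simp; ring)
        (by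
          push_cast
          rw [mul_pow, hsq]
          have h2 : 2 * (((p : ℝ) - 1) * ((r : ℝ) - 1)) / ((p : ℝ) * r) *
              (√((p : ℝ) * r) * c) = 2 * e * c := by
            rw [he]
            generalize √((p : ℝ) * r) = s at hsq hsq0
            rw [← hsq]
            field_simp
          rw [h2]
          field_simp
          field_simp at hR
          linarith)
      refine ⟨x ^ 2 / ((p : ℚ) * r), ?_⟩
      push_cast
      rw [hx, mul_pow, hsq]
      field_simp
    · obtain rfl := hodd hod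
      have he' : e = ((p : ℝ) - 1) ^ 2 / p := by
        rw [he, sqrt_mul_self (by linarith), sq]
      obtain ⟨x, hx⟩ := odd_case (C := c) (R := R) (e := e) ⟨R, rfl⟩
        ⟨(p - 1 : ℚ) ^ 2 / p, by rw [he']; push_cast; ring⟩ he0.ne' hc1
        (by rw [← hR, ← he']; ring)
      exact ⟨x ^ 2, by push_cast; rw [hx]⟩
  obtain ⟨x, hx⟩ := hrc2
  have hniven := niven_angle_div_pi_eq (r := (4 : ℚ) / m) ⟨2 * x - 1, by
      push_cast; rw [hx, ← hcos4]; congr 1; ring⟩
    ⟨by positivity, by
      rw [div_le_one (by exact_mod_cast (by omega : 0 < m))]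
      exact_mod_cast (by omega : 4 ≤ m)⟩
  simp only [Set.mem_insert_iff, Set.mem_singleton_iff] at hniven ⊢
  have hmq : (0 : ℚ) < m := by exact_mod_cast (by omega : 0 < m)
  have hm6 : m = 6 ∨ m = 8 ∨ m = 12 := by
    rcases hniven with h | h | h | h | h
    · exfalso
      rw [div_eq_zero_iff] at h
      rcases h with h | h <;> linarith
    · right; right; field_simp at h; exact_mod_cast (by linarith : (m : ℚ) = 12)
    · right; left; field_simp at h; exact_mod_cast (by linarith : (m : ℚ) = 8)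
    · left; field_simp at h; exact_mod_cast (by linarith : (m : ℚ) = 6)
    · exfalso
      field_simp at h
      have : (5 : ℚ) ≤ m := by exact_mod_cast hm5
      linarith
  rcases hm6 with rfl | rfl | rfl
  · simp
  · simp
  exfalso
  obtain ⟨R₂, hR₂⟩ := hrat 2 two_pos (by norm_num)
  have hc2 : cos (2 * π * (2 : ℕ) / (12 : ℕ)) = 1 / 2 := by
    rw [← cos_pi_div_three]; congr 1; push_cast; ring
  rw [hc2] at hR₂
  -- so `e` is rational, hence so is `√(p r)`
  set e' : ℚ := R₂ * (3 / 4) - (p - 1 : ℚ) ^ 2 / p - (r - 1 : ℚ) ^ 2 / r with hedef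
  have he'e : (e' : ℝ) = e := by
    rw [hedef]; push_cast
    linarith
  set s : ℚ := (p - 1 : ℚ) * (r - 1) / e' with hsdef
  have hs : (s : ℝ) = √((p : ℝ) * r) := by
    rw [hsdef]; push_cast
    rw [he'e, he]
    field_simp
    exact div_self (mul_ne_zero (by linarith) (by linarith))
  have hc12 : c = √3 / 2 := by
    rw [hc, ← cos_pi_div_six]; congr 1; push_cast; ring
  -- the equation for `j = 1` then makes `√3` rational
  set u : ℚ := R * (1 / 4) - (p - 1 : ℚ) ^ 2 / p - (r - 1 : ℚ) ^ 2 / r with hu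
  have hs3 : e * √3 = (u : ℝ) := by
    have h2 : c ^ 2 = 3 / 4 := by rw [hc12, div_pow, sq_sqrt (by norm_num)]; norm_num
    rw [h2] at hR
    rw [hc12] at hR
    rw [hu]; push_cast
    linarith
  have hirr : Irrational √3 := Nat.Prime.irrational_sqrt (p := 3) (by norm_num)
  refine hirr ⟨u / e', ?_⟩
  push_cast
  rw [he'e, ← hs3]
  field_simp

end Cfsg.Agent.FeitHigman
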