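import Cfsg.Agent.FeitHigman.Hecke
import Cfsg.Agent.BNPair.RankTwo

/-!
# Two-dimensional representations of the Hecke relations of rank two
-/

set_option autoImplicit false

namespace Cfsg.Agent.FeitHigman

open BNPair Real

/-- First generator matrix. -/
noncomputable def matS (p : ℝ) : Matrix (Fin 2) (Fin 2) ℝ := !![p, 1; 0, -1]

/-- Second generator matrix. -/
noncomputable def matT (y r : ℝ) : Matrix (Fin 2) (Fin 2) ℝ := !![-1, 0; y, r]

theorem matS_sq (p : ℝ) : matS p * matS p = p • 1 + (p - 1) • matS p := by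
  ext i j; fin_cases i <;> fin_cases j <;> simp [matS] <;> ring

theorem matT_sq (y r : ℝ) : matT y r * matT y r = r • 1 + (r - 1) • matT y r := by
  ext i j; fin_cases i <;> fin_cases j <;> simp [matT] <;> ring

theorem prod_sq {Pw C p r : ℝ} (hP : Pw * Pw = p * r) (y : ℝ) (hy : y = p + r + 2 * Pw * C) :
    (matS p * matT y r) * (matS p * matT y r) =
        (2 * Pw * C) • (matS p * matT y r) - (Pw * Pw) • (1 : Matrix (Fin 2) (Fin 2) ℝ) ∧
      (matT y r * matS p) * (matT y r * matS p) =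
        (2 * Pw * C) • (matT y r * matS p) - (Pw * Pw) • (1 : Matrix (Fin 2) (Fin 2) ℝ) := by
  rw [hP, hy]
  constructor <;>
    (ext i j; fin_cases i <;> fin_cases j <;> simp [matS, matT] <;> ring)

theorem sin_succ_mul (k θ : ℝ) :
    sin ((k + 1) * θ) = 2 * cos θ * sin (k * θ) - sin ((k - 1) * θ) := by
  rw [show (k + 1) * θ = k * θ + θ by ring, show (k - 1) * θ = k * θ - θ by ring, sin_add, sin_sub]
  ring

theorem pow_formula {X : Matrix (Fin 2) (Fin 2) ℝ} {Pw θ : ℝ} (hP : Pw ≠ 0)
    (hX : X * X = (2 * Pw * cos θ) • X - (Pw * Pw) • (1 : Matrix (Fin 2) (Fin 2) ℝ)) (k : ℕ) :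
    sin θ • X ^ k = (Pw ^ k * sin (k * θ) / Pw) • X -
      (Pw ^ k * sin (((k : ℝ) - 1) * θ)) • (1 : Matrix (Fin 2) (Fin 2) ℝ) := by
  induction k with
  | zero => simp
  | succ k ih =>
    rw [pow_succ, ← smul_mul_assoc, ih, sub_mul, smul_mul_assoc, smul_mul_assoc, hX, one_mul,
      smul_sub, smul_smul, smul_smul, sub_right_comm, ← sub_smul]
    congr 1
    · congr 1
      push_cast
      rw [sin_succ_mul]
      field_simp
      ring
    · congr 1
      push_cast
      rw [add_sub_cancel_right]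
      field_simp
      ring

theorem trace_pow {X : Matrix (Fin 2) (Fin 2) ℝ} {Pw θ : ℝ} (hP : Pw ≠ 0) (hs : sin θ ≠ 0)
    (hX : X * X = (2 * Pw * cos θ) • X - (Pw * Pw) • (1 : Matrix (Fin 2) (Fin 2) ℝ))
    (htr : X.trace = 2 * Pw * cos θ) (k : ℕ) :
    (X ^ k).trace = 2 * Pw ^ k * cos (k * θ) := by
  refine mul_left_cancel₀ hs ?_
  rw [← smul_eq_mul, ← Matrix.trace_smul, pow_formula hP hX, Matrix.trace_sub, Matrix.trace_smul,
    Matrix.trace_smul, htr, Matrix.trace_one, Fintype.card_fin, smul_eq_mul, smul_eq_mul,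
    show ((k : ℝ) - 1) * θ = k * θ - θ by ring, sin_sub]
  field_simp
  push_cast
  ring

theorem trace_pow_mul {p r Pw θ y : ℝ} (hP : Pw * Pw = p * r) (hP0 : Pw ≠ 0) (hs : sin θ ≠ 0)
    (hy : y = p + r + 2 * Pw * cos θ) (k : ℕ) :
    ((matS p * matT y r) ^ k * matS p).trace = Pw ^ k * ((p - 1) * cos (k * θ) +
        ((p - 1) * cos θ + p * (r - 1) / Pw) / sin θ * sin (k * θ)) ∧
      ((matT y r * matS p) ^ k * matT y r).trace = Pw ^ k * ((r - 1) * cos (k * θ) +
        ((r - 1) * cos θ + r * (p - 1) / Pw) / sin θ * sin (k * θ)) := by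
  have hX := prod_sq hP y hy
  constructor
  · refine mul_left_cancel₀ hs ?_
    rw [← smul_eq_mul (a := sin θ), ← Matrix.trace_smul, ← smul_mul_assoc, pow_formula hP0 hX.1,
      sub_mul, smul_mul_assoc, smul_mul_assoc, one_mul, Matrix.trace_sub, Matrix.trace_smul,
      Matrix.trace_smul, smul_eq_mul, smul_eq_mul,
      show ((k : ℝ) - 1) * θ = k * θ - θ by ring, sin_sub]
    simp [matS, matT, Matrix.trace_fin_two]
    field_simp
    rw [hy]
    linear_combination (0 : ℝ) * hP
  · refine mul_left_cancel₀ hs ?_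
    rw [← smul_eq_mul (a := sin θ), ← Matrix.trace_smul, ← smul_mul_assoc, pow_formula hP0 hX.2,
      sub_mul, smul_mul_assoc, smul_mul_assoc, one_mul, Matrix.trace_sub, Matrix.trace_smul,
      Matrix.trace_smul, smul_eq_mul, smul_eq_mul,
      show ((k : ℝ) - 1) * θ = k * θ - θ by ring, sin_sub]
    simp [matS, matT, Matrix.trace_fin_two]
    field_simp
    rw [hy]
    linear_combination (0 : ℝ) * hP

theorem braid_even {p r Pw θ y : ℝ} (hP : Pw * Pw = p * r) (hP0 : Pw ≠ 0) (hs : sin θ ≠ 0)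
    (hy : y = p + r + 2 * Pw * cos θ) {n : ℕ} (hn : sin (n * θ) = 0) :
    aprod (matS p) (matT y r) (2 * n) = aprod (matT y r) (matS p) (2 * n) := by
  rw [aprod_two_mul, aprod_two_mul]
  refine smul_right_injective _ hs ?_
  show sin θ • _ = sin θ • _
  rw [pow_formula hP0 (prod_sq hP y hy).1, pow_formula hP0 (prod_sq hP y hy).2, hn]
  simp

theorem braid_odd {p θ y : ℝ} (hp0 : p ≠ 0) (hs : sin θ ≠ 0)
    (hy : y = p + p + 2 * p * cos θ) {n : ℕ} (hn : sin (((n : ℝ) + 1) * θ) = -sin (n * θ)) :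
    aprod (matS p) (matT y p) (2 * n + 1) = aprod (matT y p) (matS p) (2 * n + 1) := by
  have hX := prod_sq (Pw := p) (p := p) (r := p) rfl y hy
  have hv : sin (((n : ℝ) - 1) * θ) = (2 * cos θ + 1) * sin (n * θ) := by
    have := sin_succ_mul (n : ℝ) θ
    rw [hn] at this
    linarith
  rw [aprod_two_mul_add_one, aprod_two_mul_add_one]
  refine smul_right_injective _ hs ?_
  show sin θ • _ = sin θ • _
  rw [← smul_mul_assoc, ← smul_mul_assoc, pow_formula hp0 hX.1, pow_formula hp0 hX.2, hv, hy]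
  ext i j
  fin_cases i <;> fin_cases j <;> simp [matS, matT, Matrix.mul_apply, Fin.sum_univ_two] <;>
    field_simp <;> ring

theorem commutant {p r y : ℝ} (hp : p + 1 ≠ 0) (hr : r + 1 ≠ 0) {M : Matrix (Fin 2) (Fin 2) ℝ}
    (h₁ : matS p * M = M * matS p) (h₂ : matT y r * M = M * matT y r) :
    M 0 1 = 0 ∧ M 1 0 = 0 ∧ M 0 0 = M 1 1 := by
  have e1 := congrFun (congrFun h₁ 0) 0
  have e2 := congrFun (congrFun h₁ 0) 1
  have e3 := congrFun (congrFun h₂ 0) 1
  simp [matS, matT, Matrix.mul_apply, Fin.sum_univ_two] at e1 e2 e3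
  have h10 : M 1 0 = 0 := by linarith
  have h01 : M 0 1 = 0 := by
    have : (r + 1) * M 0 1 = 0 := by linarith
    exact (mul_eq_zero.1 this).resolve_left hr
  refine ⟨h01, h10, ?_⟩
  rw [h01] at e2
  linarith

theorem sum_trig {θ : ℝ} {m : ℕ} {j : ℕ} (hm : (m : ℝ) * θ = 2 * π * j) (hs : sin θ ≠ 0)
    (u v : ℝ) :
    ∑ k ∈ Finset.range m, (u * cos (k * θ) + v * sin (k * θ)) ^ 2 =
      (m : ℝ) / 2 * (u ^ 2 + v ^ 2) := by
  have hc : ∑ k ∈ Finset.range m, cos (2 * k * θ) = 0 := by
    suffices key : 2 * sin θ * ∑ k ∈ Finset.range m, cos (2 * k * θ) = 0 from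
      (mul_eq_zero.1 key).resolve_left (mul_ne_zero two_ne_zero hs)
    rw [Finset.mul_sum]
    have e : ∀ k : ℕ, 2 * sin θ * cos (2 * k * θ) =
        (fun i : ℕ => sin ((2 * i - 1) * θ)) (k + 1) - (fun i : ℕ => sin ((2 * i - 1) * θ)) k := by
      intro k
      push_cast
      rw [show (2 * ((k : ℝ) + 1) - 1) * θ = 2 * k * θ + θ by ring,
        show (2 * (k : ℝ) - 1) * θ = 2 * k * θ - θ by ring, sin_add, sin_sub]
      ring
    rw [Finset.sum_congr rfl (fun k _ => e k)]
    refine (Finset.sum_range_sub (fun i : ℕ => sin ((2 * (i : ℝ) - 1) * θ)) m).trans ?_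
    push_cast
    rw [show (2 * (m : ℝ) - 1) * θ = (2 * j : ℕ) * (2 * π) - θ by push_cast; linear_combination 2 * hm,
      sin_nat_mul_two_pi_sub]
    simp
  have hsn : ∑ k ∈ Finset.range m, sin (2 * k * θ) = 0 := by
    suffices key : 2 * sin θ * ∑ k ∈ Finset.range m, sin (2 * k * θ) = 0 from
      (mul_eq_zero.1 key).resolve_left (mul_ne_zero two_ne_zero hs)
    rw [Finset.mul_sum]
    have e : ∀ k : ℕ, 2 * sin θ * sin (2 * k * θ) =
        (fun i : ℕ => -cos ((2 * i - 1) * θ)) (k + 1) -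
          (fun i : ℕ => -cos ((2 * i - 1) * θ)) k := by
      intro k
      push_cast
      rw [show (2 * ((k : ℝ) + 1) - 1) * θ = 2 * k * θ + θ by ring,
        show (2 * (k : ℝ) - 1) * θ = 2 * k * θ - θ by ring, cos_add, cos_sub]
      ring
    rw [Finset.sum_congr rfl (fun k _ => e k)]
    refine (Finset.sum_range_sub (fun i : ℕ => -cos ((2 * (i : ℝ) - 1) * θ)) m).trans ?_
    push_cast
    rw [show (2 * (m : ℝ) - 1) * θ = (2 * j : ℕ) * (2 * π) - θ by push_cast; linear_combination 2 * hm,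
      cos_nat_mul_two_pi_sub]
    simp
  have e : ∀ k : ℕ, (u * cos (k * θ) + v * sin (k * θ)) ^ 2 =
      (u ^ 2 + v ^ 2) / 2 + ((u ^ 2 - v ^ 2) / 2 * cos (2 * k * θ) + u * v * sin (2 * k * θ)) := by
    intro k
    rw [mul_assoc 2 (k : ℝ) θ, cos_two_mul, sin_two_mul]
    linear_combination v ^ 2 * sin_sq_add_cos_sq ((k : ℝ) * θ)
  rw [Finset.sum_congr rfl (fun k _ => e k), Finset.sum_add_distrib, Finset.sum_add_distrib,
    ← Finset.mul_sum, ← Finset.mul_sum, hc, hsn, Finset.sum_const, Finset.card_range]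
  simp
  ring

variable {G : Type*} [Group G] [Finite G] {P : Cfsg.BNPair G} {s t : P.S}

theorem prod_eq_of_reduced (h : IsPairGen P s t) {H : Type*} [Monoid H] {x y : H} {ρ : W P → H}
    (h1 : ∀ k ≤ orderOf (σ P s * σ P t), ρ (wprod P (altList s t k)) = aprod x y k)
    (h2 : ∀ k ≤ orderOf (σ P s * σ P t), ρ (wprod P (altList t s k)) = aprod y x k)
    [DecidableEq P.S] {l : List P.S} (hl : l.length = len P (wprod P l)) :
    ρ (wprod P l) = (l.map fun u => if u = s then x else y).prod := by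
  have hk : l.length ≤ orderOf (σ P s * σ P t) := hl ▸ h.len_le _
  rcases reduced_eq_altList P s t l (fun u _ => h.cover u) hl with e | e <;>
    rw [e, prod_altList]
  · rw [h1 _ hk, if_pos rfl, if_neg h.ne.symm]
  · rw [h2 _ hk, if_pos rfl, if_neg h.ne.symm]

/-- The Hecke family defined by a braided pair satisfying the quadratic relations. -/
theorem exists_hecke (h : IsPairGen P s t) {H : Type*} [Ring H] [Algebra ℝ H] (x y : H)
    (q : P.S → ℝ) (hx : x * x = q s • (1 : H) + (q s - 1) • x)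
    (hy : y * y = q t • (1 : H) + (q t - 1) • y)
    (hbraid : aprod x y (orderOf (σ P s * σ P t)) = aprod y x (orderOf (σ P s * σ P t))) :
    ∃ ρ : W P → H, IsHecke P q ρ ∧ ρ (σ P s) = x ∧ ρ (σ P t) = y ∧
      (∀ k ≤ orderOf (σ P s * σ P t), ρ (wprod P (altList s t k)) = aprod x y k) ∧
      (∀ k ≤ orderOf (σ P s * σ P t), ρ (wprod P (altList t s k)) = aprod y x k) := by
  classical
  obtain ⟨ρ, h1, h2⟩ := h.exists_braidFun x y hbraid
  have hone : 1 ≤ orderOf (σ P s * σ P t) := h.one_lt_order.le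
  have hs : ρ (σ P s) = x := by simpa [wprod_altList, aprod] using h1 1 hone
  have ht : ρ (σ P t) = y := by simpa [wprod_altList, aprod] using h2 1 hone
  have hgen : ∀ u, ρ (σ P u) = if u = s then x else y := by
    intro u
    rcases h.cover u with rfl | rfl
    · rw [if_pos rfl, hs]
    · rw [if_neg h.ne.symm, ht]
  refine ⟨ρ, ⟨?_, ?_, ?_, ?_⟩, hs, ht, h1, h2⟩
  · simpa [altList, aprod] using h1 0 (Nat.zero_le _)
  · intro u w hup
    obtain ⟨l, rfl, hl⟩ := exists_reduced P w
    have hred : (u :: l).length = len P (wprod P (u :: l)) := by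
      rw [wprod_cons, List.length_cons, hl]
      rcases len_σ_mul P u (wprod P l) with e | e <;> omega
    rw [← wprod_cons, prod_eq_of_reduced h h1 h2 hred, prod_eq_of_reduced h h1 h2 hl,
      List.map_cons, List.prod_cons, hgen]
  · intro u w hup
    obtain ⟨l, rfl, hl⟩ := exists_reduced P w
    have hred : (l ++ [u]).length = len P (wprod P (l ++ [u])) := by
      rw [wprod_append, List.length_append, List.length_singleton, hl,
        show wprod P [u] = σ P u by simp]
      rcases len_mul_σ P u (wprod P l) with e | e <;> omega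
    have := prod_eq_of_reduced h h1 h2 hred
    rw [wprod_append, show wprod P [u] = σ P u by simp] at this
    rw [this, prod_eq_of_reduced h h1 h2 hl, List.map_append, List.prod_append, hgen]
    simp
  · intro u
    rcases h.cover u with rfl | rfl
    · rw [hs, hx]
    · rw [ht, hy]

theorem weight_alt (h : IsPairGen P s t) {q : P.S → ℝ} {qw : W P → ℝ} (hq : IsWeight P q qw)
    (h1 : qw 1 = 1) : ∀ k ≤ orderOf (σ P s * σ P t),
      qw (wprod P (altList s t k)) = aprod (q s) (q t) k ∧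
        qw (wprod P (altList t s k)) = aprod (q t) (q s) k := by
  intro k
  induction k with
  | zero => intro _; simp [altList, aprod, h1]
  | succ k ih =>
    intro hk
    obtain ⟨e1, e2⟩ := ih (by omega)
    constructor
    · show qw (wprod P (s :: altList t s k)) = q s * aprod (q t) (q s) k
      rw [wprod_cons, hq.mul_left s _ ?_, e2]
      rw [← wprod_cons, h.symm.len_alt (by rw [IsPairGen.order_comm s t]; omega)]
      show k < len P (wprod P (altList s t (k + 1)))
      rw [h.len_alt hk]; omega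
    · show qw (wprod P (t :: altList s t k)) = q t * aprod (q s) (q t) k
      rw [wprod_cons, hq.mul_left t _ ?_, e1]
      rw [← wprod_cons, h.len_alt (by omega)]
      show k < len P (wprod P (altList t s (k + 1)))
      rw [h.symm.len_alt (by rwa [IsPairGen.order_comm s t])]; omega

/-- The value of the sum whose rationality drives the Feit–Higman argument. -/
theorem char_sum (h : IsPairGen P s t) [Fintype (W P)] {p r Pw θ y : ℝ} {j : ℕ}
    (hθ : (orderOf (σ P s * σ P t) : ℝ) * θ = 2 * π * j)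
    (hp : 0 < p) (hr : 0 < r) (hP : Pw * Pw = p * r) (hP0 : 0 < Pw) (hs : sin θ ≠ 0)
    (hy : y = p + r + 2 * Pw * cos θ) {q : P.S → ℝ} (hqs : q s = p) (hqt : q t = r)
    {qw : W P → ℝ} (hq : IsWeight P q qw) (hq1 : qw 1 = 1)
    {ρ : W P → Matrix (Fin 2) (Fin 2) ℝ}
    (h1 : ∀ k ≤ orderOf (σ P s * σ P t),
      ρ (wprod P (altList s t k)) = aprod (matS p) (matT y r) k)
    (h2 : ∀ k ≤ orderOf (σ P s * σ P t),
      ρ (wprod P (altList t s k)) = aprod (matT y r) (matS p) k) :
    ∑ w, (ρ w).trace * (ρ w⁻¹).trace / qw w =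
      2 * (orderOf (σ P s * σ P t) : ℝ) +
        (orderOf (σ P s * σ P t) : ℝ) / 2 *
          (((p - 1) ^ 2 + (((p - 1) * cos θ + p * (r - 1) / Pw) / sin θ) ^ 2) / p) := by
  set m := orderOf (σ P s * σ P t) with hm
  have hmpos := h.order_pos
  rw [← hm] at hmpos
  have hX := prod_sq hP y hy
  have htrX : (matS p * matT y r).trace = 2 * Pw * cos θ := by
    rw [hy]; simp [matS, matT, Matrix.trace_fin_two]; ring
  have htrY : (matT y r * matS p).trace = 2 * Pw * cos θ := by
    rw [Matrix.trace_mul_comm]; exact htrX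
  have hqw := weight_alt h hq hq1
  have hrot : ∀ k ∈ Finset.range m,
      (ρ ((σ P s * σ P t) ^ k)).trace * (ρ ((σ P s * σ P t) ^ k)⁻¹).trace /
        qw ((σ P s * σ P t) ^ k) = (2 * cos (k * θ) + 0 * sin (k * θ)) ^ 2 := by
    intro k hk
    rw [Finset.mem_range] at hk
    rcases le_or_gt (2 * k) m with h2k | h2k
    · have e : (σ P s * σ P t) ^ k = wprod P (altList s t (2 * k)) := by
        rw [wprod_altList, aprod_two_mul]
      have e' : ((σ P s * σ P t) ^ k)⁻¹ = wprod P (altList t s (2 * k)) := by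
        rw [IsPairGen.inv_pow_eq, wprod_altList, aprod_two_mul]
      rw [e', e, h1 _ h2k, h2 _ h2k, (hqw _ h2k).1, aprod_two_mul, aprod_two_mul, aprod_two_mul,
        trace_pow hP0.ne' hs hX.1 htrX, trace_pow hP0.ne' hs hX.2 htrY, hqs, hqt, ← hP]
      have : Pw ^ k ≠ 0 := pow_ne_zero _ hP0.ne'
      rw [mul_pow Pw Pw k]
      field_simp
      ring
    · set l := m - k with hl
      have hl2 : 2 * l ≤ m := by omega
      have e : (σ P s * σ P t) ^ k = wprod P (altList t s (2 * l)) := by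
        rw [wprod_altList, aprod_two_mul, ← IsPairGen.inv_pow_eq s t l]
        refine eq_inv_of_mul_eq_one_left ?_
        rw [← pow_add, show k + l = m by omega, hm, pow_orderOf_eq_one]
      have e' : ((σ P s * σ P t) ^ k)⁻¹ = wprod P (altList s t (2 * l)) := by
        rw [e, wprod_altList, wprod_altList, aprod_two_mul, aprod_two_mul, IsPairGen.inv_pow_eq]
      have hcos : cos (k * θ) = cos (l * θ) := by
        have : (k : ℝ) * θ = (j : ℕ) * (2 * π) - l * θ := by
          rw [hl, Nat.cast_sub hk.le]; linear_combination hθ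
        rw [this, cos_nat_mul_two_pi_sub]
      rw [e', e, h1 _ hl2, h2 _ hl2, (hqw _ hl2).2, aprod_two_mul, aprod_two_mul, aprod_two_mul,
        trace_pow hP0.ne' hs hX.1 htrX, trace_pow hP0.ne' hs hX.2 htrY, hqs, hqt, hcos,
        mul_comm r p, ← hP]
      have : Pw ^ l ≠ 0 := pow_ne_zero _ hP0.ne'
      rw [mul_pow Pw Pw l]
      field_simp
      ring
  set g := ((p - 1) * cos θ + p * (r - 1) / Pw) / sin θ with hg
  set g' := ((r - 1) * cos θ + r * (p - 1) / Pw) / sin θ with hg'
  have hrefl : ∀ k ∈ Finset.range m,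
      (ρ ((σ P s * σ P t) ^ k * σ P s)).trace *
          (ρ ((σ P s * σ P t) ^ k * σ P s)⁻¹).trace / qw ((σ P s * σ P t) ^ k * σ P s) =
        ((p - 1) * cos (k * θ) + g * sin (k * θ)) ^ 2 / p := by
    intro k hk
    rw [Finset.mem_range] at hk
    have hinv : ((σ P s * σ P t) ^ k * σ P s)⁻¹ = (σ P s * σ P t) ^ k * σ P s := by
      rw [mul_inv_rev, σ_inv, ← inv_pow, mul_inv_rev, σ_inv, σ_inv]
      have hc : SemiconjBy (σ P s) (σ P t * σ P s) (σ P s * σ P t) := by
        show σ P s * (σ P t * σ P s) = σ P s * σ P t * σ P s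
        rw [mul_assoc]
      exact (hc.pow_right k).eq
    rw [hinv]
    rcases le_or_gt (2 * k + 1) m with h2k | h2k
    · have e : (σ P s * σ P t) ^ k * σ P s = wprod P (altList s t (2 * k + 1)) := by
        rw [wprod_altList, aprod_two_mul_add_one]
      rw [e, h1 _ h2k, (hqw _ h2k).1, aprod_two_mul_add_one, aprod_two_mul_add_one,
        (trace_pow_mul hP hP0.ne' hs hy k).1, hqs, hqt, ← hg, ← hP]
      have : Pw ^ k ≠ 0 := pow_ne_zero _ hP0.ne'
      rw [mul_pow Pw Pw k]
      field_simp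
    · set l := m - 1 - k with hl
      have hl2 : 2 * l + 1 ≤ m := by omega
      have e : (σ P s * σ P t) ^ k * σ P s = wprod P (altList t s (2 * l + 1)) := by
        rw [wprod_altList, aprod_two_mul_add_one, ← IsPairGen.inv_pow_eq s t l,
          eq_inv_mul_iff_mul_eq, ← mul_assoc, ← pow_add]
        have hlast : (σ P s * σ P t) ^ (l + k + 1) = 1 := by
          rw [show l + k + 1 = m by omega, hm, pow_orderOf_eq_one]
        have h3 : (σ P s * σ P t) ^ (l + k) = σ P t * σ P s := by
          rw [pow_succ] at hlast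
          rw [eq_inv_of_mul_eq_one_left hlast, mul_inv_rev, σ_inv, σ_inv]
        rw [h3, mul_σ_mul_σ]
      have hA : (p - 1) * cos (k * θ) + g * sin (k * θ) =
          -(p / Pw) * ((r - 1) * cos (l * θ) + g' * sin (l * θ)) := by
        have hkl : (k : ℝ) * θ = (j : ℕ) * (2 * π) - ((l : ℝ) * θ + θ) := by
          have : ((l : ℝ) + k + 1) = m := by exact_mod_cast (by omega : l + k + 1 = m)
          rw [← this] at hθ
          linear_combination hθ
        rw [hkl, cos_nat_mul_two_pi_sub, sin_nat_mul_two_pi_sub, cos_add, sin_add, hg, hg']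
        field_simp
        linear_combination (-(p - 1) * Pw ^ 2 * sin (l * θ)) * sin_sq_add_cos_sq θ +
          (-(p - 1) * sin (l * θ)) * hP
      rw [e, h2 _ hl2, (hqw _ hl2).2, aprod_two_mul_add_one, aprod_two_mul_add_one,
        (trace_pow_mul hP hP0.ne' hs hy l).2, hqs, hqt, ← hg', hA, mul_comm r p, ← hP]
      have : Pw ^ l ≠ 0 := pow_ne_zero _ hP0.ne'
      rw [mul_pow Pw Pw l]
      generalize (r - 1) * cos (l * θ) + g' * sin (l * θ) = B
      field_simp
      linear_combination (B ^ 2) * hP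
  rw [h.sum_W, Finset.sum_add_distrib, Finset.sum_congr rfl hrot, Finset.sum_congr rfl hrefl,
    ← Finset.sum_div, sum_trig hθ hs, sum_trig hθ hs]
  ring

end Cfsg.Agent.FeitHigman
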