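import Cfsg.Agent.FeitHigman.Operators
import Cfsg.Agent.FeitHigman.Rep
import Cfsg.Agent.FeitHigman.Arith

/-!
# The Feit–Higman theorem
-/

set_option autoImplicit false

namespace Cfsg.Agent.FeitHigman

open BNPair Real

variable {G : Type*} [Group G] [Finite G] (P : Cfsg.BNPair G)

/-- Feit–Higman: the order of the product of the two generators is 2, 3, 4, 6 or 8. -/
theorem order_mem {s t : P.S} (h : IsPairGen P s t) :
    orderOf (σ P s * σ P t) ∈ ({2, 3, 4, 6, 8} : Set ℕ) := by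
  classical
  haveI : Fintype (G ⧸ P.B) := Fintype.ofFinite _
  haveI : Fintype (W P) := Fintype.ofFinite _
  set m := orderOf (σ P s * σ P t) with hm
  have hm2 : 2 ≤ m := h.one_lt_order
  obtain ⟨p0, hp0⟩ : ∃ k : ℕ, (k : ℝ) = cnt P (σ P s) := ⟨_, rfl⟩
  obtain ⟨r0, hr0⟩ : ∃ k : ℕ, (k : ℝ) = cnt P (σ P t) := ⟨_, rfl⟩
  have hp2 : 2 ≤ p0 := by
    have := two_le_cnt P s
    rw [← hp0] at this; exact_mod_cast this
  have hr2 : 2 ≤ r0 := by
    have := two_le_cnt P t
    rw [← hr0] at this; exact_mod_cast this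
  have hq := isWeight_cnt P
  have hcnt1 : cnt P (1 : W P) = 1 := by
    have : (Finset.univ.filter fun y : G ⧸ P.B => rel P ((1 : G) : G ⧸ P.B) y = 1) =
        {((1 : G) : G ⧸ P.B)} := by
      ext y
      simp only [Finset.mem_filter, Finset.mem_univ, true_and, Finset.mem_singleton, rel_eq_one]
      exact eq_comm
    rw [cnt, this]; simp
  have hodd : Odd m → p0 = r0 := by
    rintro ⟨a, ha⟩
    obtain ⟨e1, e2⟩ := weight_alt h hq hcnt1 m le_rfl
    have he : wprod P (altList s t m) = wprod P (altList t s m) := by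
      rw [wprod_altList, wprod_altList]
      exact (h.pow_eq_one_iff m).1 (pow_orderOf_eq_one _)
    rw [he, e2, ha, aprod_two_mul_add_one, aprod_two_mul_add_one, ← hp0, ← hr0,
      mul_comm (r0 : ℝ) p0] at e1
    have : ((p0 : ℝ) * r0) ^ a ≠ 0 := by
      have : (0 : ℝ) < p0 ∧ (0 : ℝ) < r0 := ⟨by exact_mod_cast (by omega : 0 < p0),
        by exact_mod_cast (by omega : 0 < r0)⟩
      exact pow_ne_zero _ (mul_ne_zero this.1.ne' this.2.ne')
    exact_mod_cast (mul_left_cancel₀ this e1).symm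
  refine feit_higman_arith m p0 r0 hm2 hp2 hr2 hodd fun j hj hjm => ?_
  have hp : (0 : ℝ) < p0 := by exact_mod_cast (by omega : 0 < p0)
  have hr : (0 : ℝ) < r0 := by exact_mod_cast (by omega : 0 < r0)
  have hm' : (0 : ℝ) < m := by exact_mod_cast (by omega : 0 < m)
  set θ : ℝ := 2 * π * j / m with hθdef
  set Pw : ℝ := √((p0 : ℝ) * r0) with hPw
  have hP0 : 0 < Pw := sqrt_pos.2 (mul_pos hp hr)
  have hP : Pw * Pw = (p0 : ℝ) * r0 := mul_self_sqrt (mul_pos hp hr).le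
  have hθ : (m : ℝ) * θ = 2 * π * j := by rw [hθdef]; field_simp
  have hs : sin θ ≠ 0 := by
    refine (sin_pos_of_pos_of_lt_pi ?_ ?_).ne'
    · have : (0 : ℝ) < j := by exact_mod_cast hj
      rw [hθdef]; positivity
    · rw [hθdef, div_lt_iff₀ hm']
      have : (2 : ℝ) * j < m := by exact_mod_cast hjm
      nlinarith [pi_pos]
  set y : ℝ := (p0 : ℝ) + r0 + 2 * Pw * cos θ with hy
  have hbraid : aprod (matS (p0 : ℝ)) (matT y (r0 : ℝ)) m =
      aprod (matT y (r0 : ℝ)) (matS (p0 : ℝ)) m := by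
    rcases Nat.even_or_odd' m with ⟨n, hn | hn⟩
    · rw [hn]
      refine braid_even hP hP0.ne' hs hy ?_
      have : (n : ℝ) * θ = (j : ℕ) * π := by
        rw [hn] at hθ; push_cast at hθ; linarith
      rw [this, sin_nat_mul_pi]
    · obtain rfl := hodd ⟨n, hn⟩
      rw [hn]
      have hPp : Pw = p0 := by rw [hPw, sqrt_mul_self hp.le]
      refine braid_odd hp.ne' hs (by rw [hy, hPp]) ?_
      have : ((n : ℝ) + 1) * θ = (j : ℕ) * (2 * π) - n * θ := by
        rw [hn] at hθ; push_cast at hθ; linarith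
      rw [this, sin_nat_mul_two_pi_sub]
  have hqs : (fun u => cnt P (σ P u)) s = (p0 : ℝ) := hp0.symm
  have hqt : (fun u => cnt P (σ P u)) t = (r0 : ℝ) := hr0.symm
  obtain ⟨ρ, hρ, hρs, hρt, h1, h2⟩ := exists_hecke h (matS (p0 : ℝ)) (matT y (r0 : ℝ))
    (fun u => cnt P (σ P u)) (by rw [matS_sq, ← hp0]) (by rw [matT_sq, ← hr0]) hbraid
  have hsum := char_sum h hθ hp hr hP hP0 hs hy hqs hqt hq hcnt1 h1 h2
  rw [← hm] at hsum
  set Sg := ∑ w, (ρ w).trace * (ρ w⁻¹).trace / cnt P w with hSg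
  set E := charElem (cnt P) (opT P) ρ with hE
  have hsq : E * E = (Sg / 2) • E := charElem_sq (isHecke_opT P) hρ hq fun M hM =>
    commutant (p := (p0 : ℝ)) (r := (r0 : ℝ)) (y := y) (by linarith) (by linarith)
      (hρs ▸ hM s) (hρt ▸ hM t)
  have htr : E.trace = 2 * (Fintype.card (G ⧸ P.B) : ℝ) := by
    rw [hE, charElem, Matrix.trace_sum]
    simp only [Matrix.trace_smul, trace_opT, inv_eq_one, smul_ite, smul_zero, Finset.sum_ite_eq',
      Finset.mem_univ, if_true, smul_eq_mul, mul_ite, mul_zero]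
    rw [hρ.map_one, hcnt1, Matrix.trace_one, Fintype.card_fin]
    push_cast; ring
  have hSpos : 0 < Sg / 2 := by
    rw [hsum]; positivity
  obtain ⟨k, hk⟩ := exists_rat_of_idempotent hSpos.ne' hsq htr
  have hk0 : (k : ℝ) ≠ 0 := by
    intro h0; rw [h0, zero_mul] at hk
    have : 0 < Fintype.card (G ⧸ P.B) := Fintype.card_pos_iff.2 ⟨((1 : G) : G ⧸ P.B)⟩
    have : (0 : ℝ) < Fintype.card (G ⧸ P.B) := by exact_mod_cast this
    linarith
  refine ⟨2 * (4 * (Fintype.card (G ⧸ P.B) : ℚ) / k - 2 * m) / m, ?_⟩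
  have hS : Sg = 4 * (Fintype.card (G ⧸ P.B) : ℝ) / k := by
    field_simp at hk ⊢; linarith
  push_cast
  rw [← hS, hsum]
  have hc2 : 1 - cos θ ^ 2 = sin θ ^ 2 := by linarith [sin_sq_add_cos_sq θ]
  rw [hc2]
  field_simp
  linear_combination (-((p0 : ℝ) - 1) ^ 2 * r0 * Pw ^ 2) * sin_sq_add_cos_sq θ +
    (((r0 : ℝ) - 1) ^ 2 * p0) * hP

end Cfsg.Agent.FeitHigman
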